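import Mathlib

/-!
# The Baer correspondence for groups of class two and odd exponent

For a group `D` of exponent `p` (`p` odd) in which commutators are central, the operation
`x + y = x y [y,x]^m` with `2m = p + 1` makes `D` an abelian group on which every automorphism of `D`
acts additively.
-/

set_option autoImplicit false
set_option linter.unusedSectionVars false

namespace Cfsg.Agent.Lib.Components

open Subgroup
open scoped commutatorElement

section Baer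

variable {D : Type*} [Group D]

/-- The class two hypothesis. -/
def CentralComm (D : Type*) [Group D] : Prop := ∀ x y z : D, ⁅x, y⁆ * z = z * ⁅x, y⁆

variable (hcen : CentralComm D)

include hcen in
theorem cc_comm (x y z : D) : Commute ⁅x, y⁆ z := hcen x y z

include hcen in
theorem cc_pow (x y z : D) (k : ℕ) : Commute (⁅x, y⁆ ^ k) z := (cc_comm hcen x y z).pow_left k

include hcen in
theorem cc_mul_left (x y z : D) : ⁅x * y, z⁆ = ⁅x, z⁆ * ⁅y, z⁆ := by
  have h1 := hcen y z (x⁻¹)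
  simp only [commutatorElement_def] at h1 ⊢
  calc x * y * z * (x * y)⁻¹ * z⁻¹ = x * (y * z * y⁻¹ * z⁻¹) * z * x⁻¹ * z⁻¹ := by group
    _ = x * z * x⁻¹ * z⁻¹ * (y * z * y⁻¹ * z⁻¹) := by
      have h2 := hcen y z (z * x⁻¹ * z⁻¹)
      simp only [commutatorElement_def] at h2
      calc x * (y * z * y⁻¹ * z⁻¹) * z * x⁻¹ * z⁻¹
          = x * ((y * z * y⁻¹ * z⁻¹) * (z * x⁻¹ * z⁻¹)) := by group
        _ = x * ((z * x⁻¹ * z⁻¹) * (y * z * y⁻¹ * z⁻¹)) := by rw [h2]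
        _ = _ := by group

include hcen in
theorem cc_mul_right (x y z : D) : ⁅x, y * z⁆ = ⁅x, y⁆ * ⁅x, z⁆ := by
  simp only [commutatorElement_def]
  have h2 := hcen x z (y⁻¹)
  simp only [commutatorElement_def] at h2
  calc x * (y * z) * x⁻¹ * (y * z)⁻¹ = x * y * x⁻¹ * (x * z * x⁻¹ * z⁻¹) * y⁻¹ := by group
    _ = x * y * x⁻¹ * ((x * z * x⁻¹ * z⁻¹) * y⁻¹) := by group
    _ = x * y * x⁻¹ * (y⁻¹ * (x * z * x⁻¹ * z⁻¹)) := by rw [h2]
    _ = _ := by group

theorem cc_inv (x y : D) : ⁅x, y⁆⁻¹ = ⁅y, x⁆ := commutatorElement_inv x y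

include hcen in
theorem cc_self_pow (x y : D) (k : ℕ) : ⁅⁅x, y⁆ ^ k, x⁆ = 1 := by
  rw [commutatorElement_eq_one_iff_mul_comm]
  exact cc_pow hcen x y x k

/-- The Baer sum. -/
def bSum (m : ℕ) (x y : D) : D := x * y * ⁅y, x⁆ ^ m

theorem bSum_def (m : ℕ) (x y : D) : bSum m x y = x * y * ⁅y, x⁆ ^ m := rfl

include hcen in
/-- Central powers pass through commutators. -/
theorem cc_central_right (a b z : D) (k : ℕ) : ⁅z, ⁅a, b⁆ ^ k⁆ = 1 := by
  rw [commutatorElement_eq_one_iff_mul_comm]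
  exact (cc_pow hcen a b z k).symm

include hcen in
theorem cc_central_left (a b z : D) (k : ℕ) : ⁅⁅a, b⁆ ^ k, z⁆ = 1 := by
  rw [commutatorElement_eq_one_iff_mul_comm]
  exact cc_pow hcen a b z k

include hcen in
theorem bSum_assoc (m : ℕ) (x y z : D) : bSum m (bSum m x y) z = bSum m x (bSum m y z) := by
  simp only [bSum_def]
  have e1 : ⁅z, x * y * ⁅y, x⁆ ^ m⁆ = ⁅z, x⁆ * ⁅z, y⁆ := by
    rw [cc_mul_right hcen, cc_mul_right hcen, cc_central_right hcen, mul_one]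
  have e2 : ⁅y * z * ⁅z, y⁆ ^ m, x⁆ = ⁅y, x⁆ * ⁅z, x⁆ := by
    rw [cc_mul_left hcen, cc_mul_left hcen, cc_central_left hcen, mul_one]
  rw [e1, e2]
  have c1 : Commute ⁅z, x⁆ ⁅z, y⁆ := cc_comm hcen _ _ _
  have c2 : Commute ⁅y, x⁆ ⁅z, x⁆ := cc_comm hcen _ _ _
  rw [c1.mul_pow, c2.mul_pow]
  -- all the central powers move to the right
  have h1 : ∀ w : D, ⁅y, x⁆ ^ m * w = w * ⁅y, x⁆ ^ m := fun w => cc_pow hcen y x w m
  have h2 : ∀ w : D, ⁅z, x⁆ ^ m * w = w * ⁅z, x⁆ ^ m := fun w => cc_pow hcen z x w m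
  have h3 : ∀ w : D, ⁅z, y⁆ ^ m * w = w * ⁅z, y⁆ ^ m := fun w => cc_pow hcen z y w m
  calc x * y * ⁅y, x⁆ ^ m * z * (⁅z, x⁆ ^ m * ⁅z, y⁆ ^ m)
      = x * y * (⁅y, x⁆ ^ m * z) * (⁅z, x⁆ ^ m * ⁅z, y⁆ ^ m) := by simp only [mul_assoc]
    _ = x * y * z * (⁅y, x⁆ ^ m * (⁅z, x⁆ ^ m * ⁅z, y⁆ ^ m)) := by rw [h1 z]; simp only [mul_assoc]
    _ = x * y * z * (⁅y, x⁆ ^ m * (⁅z, y⁆ ^ m * ⁅z, x⁆ ^ m)) := by rw [h2 (⁅z, y⁆ ^ m)]
    _ = x * y * z * ((⁅y, x⁆ ^ m * ⁅z, y⁆ ^ m) * ⁅z, x⁆ ^ m) := by simp only [mul_assoc]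
    _ = x * y * z * ((⁅z, y⁆ ^ m * ⁅y, x⁆ ^ m) * ⁅z, x⁆ ^ m) := by rw [h1 (⁅z, y⁆ ^ m)]
    _ = x * (y * z * ⁅z, y⁆ ^ m) * (⁅y, x⁆ ^ m * ⁅z, x⁆ ^ m) := by simp only [mul_assoc]

theorem bSum_one_left (m : ℕ) (x : D) : bSum m 1 x = x := by
  simp [bSum_def]

theorem bSum_one_right (m : ℕ) (x : D) : bSum m x 1 = x := by
  simp [bSum_def]

theorem bSum_inv_left (m : ℕ) (x : D) : bSum m x⁻¹ x = 1 := by
  have h : ⁅x, x⁻¹⁆ = 1 := by
    rw [commutatorElement_eq_one_iff_mul_comm]; group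
  simp [bSum_def, h]

include hcen in
theorem bSum_comm {p m : ℕ} (hexp : ∀ x : D, x ^ p = 1) (hm : 2 * m = p + 1) (x y : D) :
    bSum m x y = bSum m y x := by
  simp only [bSum_def]
  -- `xy = [x,y] yx`
  have e1 : x * y = ⁅x, y⁆ * (y * x) := by
    rw [commutatorElement_def]; group
  have e2 : ⁅y, x⁆ = ⁅x, y⁆⁻¹ := (cc_inv x y).symm
  have h3 : ⁅x, y⁆ * ⁅x, y⁆⁻¹ ^ m = ⁅x, y⁆ ^ m := by
    -- `c * c^{-m} = c^m` since `c^{2m} = c`
    have h4 : ⁅x, y⁆ ^ (2 * m) = ⁅x, y⁆ := by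
      rw [hm, pow_succ, hexp, one_mul]
    have h5 : ⁅x, y⁆ ^ m * ⁅x, y⁆ ^ m = ⁅x, y⁆ := by
      rw [← pow_add, ← two_mul, h4]
    rw [inv_pow]
    generalize ⁅x, y⁆ ^ m = u at h5
    rw [← h5]
    group
  rw [e1, e2]
  have h6 : ∀ w : D, ⁅x, y⁆⁻¹ ^ m * w = w * ⁅x, y⁆⁻¹ ^ m := fun w =>
    ((cc_comm hcen x y w).inv_left.pow_left m)
  calc ⁅x, y⁆ * (y * x) * ⁅x, y⁆⁻¹ ^ m = ⁅x, y⁆ * ((y * x) * ⁅x, y⁆⁻¹ ^ m) := by simp only [mul_assoc]
    _ = ⁅x, y⁆ * (⁅x, y⁆⁻¹ ^ m * (y * x)) := by rw [h6 (y * x)]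
    _ = (⁅x, y⁆ * ⁅x, y⁆⁻¹ ^ m) * (y * x) := by simp only [mul_assoc]
    _ = ⁅x, y⁆ ^ m * (y * x) := by rw [h3]
    _ = y * x * ⁅x, y⁆ ^ m := cc_pow hcen x y _ m

/-- The Baer abelian group. -/
@[reducible] def baerAddCommGroup {p m : ℕ} (hexp : ∀ x : D, x ^ p = 1) (hm : 2 * m = p + 1)
    (hcen : CentralComm D) : AddCommGroup D :=
  letI : Add D := ⟨bSum m⟩
  letI : Zero D := ⟨1⟩
  letI : Neg D := ⟨fun x => x⁻¹⟩
  { AddGroup.ofLeftAxioms (bSum_assoc hcen m) (bSum_one_left m) (bSum_inv_left m) with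
    add_comm := bSum_comm hcen hexp hm }


/-- **The Baer trick**: let `D` have exponent `p` (odd) and class at most two, let `Qs` be a `p'`-group
of automorphisms of `D`, normalized by a `p`-group `As` of automorphisms. If all `As`-fixed points are
`Qs`-fixed, then `Qs` acts trivially. -/
theorem baer_trivial [Finite D] {p : ℕ} [Fact p.Prime] (hp : p ≠ 2)
    (hexp : ∀ x : D, x ^ p = 1) (hcen : CentralComm D)
    (Qs As : Subgroup (MulAut D)) (hQ : (Nat.card Qs).Coprime p) (hA : IsPGroup p As)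
    (hnorm : As ≤ normalizer (Qs : Set (MulAut D)))
    (hfix : ∀ x : D, (∀ a ∈ As, a x = x) → ∀ q ∈ Qs, q x = x) :
    ∀ q ∈ Qs, ∀ x : D, q x = x := by
  classical
  have hpp : p.Prime := Fact.out
  obtain ⟨m, hm⟩ : ∃ m, 2 * m = p + 1 := by
    obtain ⟨k, hk⟩ := hpp.odd_of_ne_two hp
    exact ⟨k + 1, by omega⟩
  letI : Fintype Qs := Fintype.ofFinite _
  letI add : AddCommGroup D := baerAddCommGroup hexp hm hcen
  have hadd_def : ∀ x y : D, x + y = x * y * ⁅y, x⁆ ^ m := fun _ _ => rfl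
  have hzero : (0 : D) = 1 := rfl
  have hneg : ∀ x : D, -x = x⁻¹ := fun _ => rfl
  have hsmul : ∀ (k : ℕ) (x : D), k • x = x ^ k := by
    intro k x
    induction k with
    | zero => rw [zero_smul, pow_zero, hzero]
    | succ k ih =>
      rw [succ_nsmul, ih, hadd_def, pow_succ]
      have h1 : ⁅x, x ^ k⁆ = 1 := by
        rw [commutatorElement_eq_one_iff_mul_comm]
        exact (Commute.pow_right (Commute.refl x) k)
      rw [h1, one_pow, mul_one]
  have hf : ∀ (f : MulAut D) (x y : D), f (x + y) = f x + f y := by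
    intro f x y
    rw [hadd_def, hadd_def, map_mul, map_mul, map_pow, map_commutatorElement]
  let fA : MulAut D → (D →+ D) := fun f => AddMonoidHom.mk' f (hf f)
  have hfA : ∀ f x, fA f x = f x := fun _ _ => rfl
  let π : D →+ D := ∑ q : Qs, fA q
  have hπ : ∀ x, π x = ∑ q : Qs, (q : MulAut D) x := by
    intro x
    simp only [π, AddMonoidHom.finsetSum_apply, hfA]
  have hπq : ∀ q ∈ Qs, ∀ x, q (π x) = π x := by
    intro q hq x
    have h1 : q (π x) = ∑ q' : Qs, q ((q' : MulAut D) x) := by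
      rw [hπ, ← hfA q, map_sum]
      rfl
    rw [h1, hπ]
    exact Fintype.sum_equiv (Equiv.mulLeft (⟨q, hq⟩ : Qs)) _ _ (fun _ => rfl)
  have hπa : ∀ a ∈ As, ∀ x, π (a x) = a (π x) := by
    intro a ha x
    have h1 : a (π x) = ∑ q' : Qs, a ((q' : MulAut D) x) := by
      rw [hπ, ← hfA a, map_sum]
      rfl
    rw [h1, hπ]
    have ha' := hnorm ha
    have hmem1 : ∀ q : Qs, a⁻¹ * (q : MulAut D) * a ∈ Qs := by
      intro q
      have := (Subgroup.mem_normalizer_iff.mp (Subgroup.inv_mem _ ha') (q : MulAut D)).mp q.2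
      simpa using this
    have hmem2 : ∀ q : Qs, a * (q : MulAut D) * a⁻¹ ∈ Qs := fun q =>
      (Subgroup.mem_normalizer_iff.mp ha' (q : MulAut D)).mp q.2
    let e : Qs ≃ Qs :=
      { toFun := fun q => ⟨a⁻¹ * (q : MulAut D) * a, hmem1 q⟩
        invFun := fun q => ⟨a * (q : MulAut D) * a⁻¹, hmem2 q⟩
        left_inv := fun q => by
          apply Subtype.ext
          show a * (a⁻¹ * (q : MulAut D) * a) * a⁻¹ = q
          group
        right_inv := fun q => by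
          apply Subtype.ext
          show a⁻¹ * (a * (q : MulAut D) * a⁻¹) * a = q
          group }
    refine Fintype.sum_equiv e _ _ (fun q => ?_)
    show (q : MulAut D) (a x) = a ((a⁻¹ * (q : MulAut D) * a) x)
    simp [MulAut.mul_apply]
  obtain ⟨n, hn⟩ : ∃ n, n = Nat.card Qs := ⟨_, rfl⟩
  have hπfixed : ∀ x, (∀ q ∈ Qs, q x = x) → π x = n • x := by
    intro x hx
    rw [hπ]
    have h1 : ∀ q : Qs, (q : MulAut D) x = x := fun q => hx q q.2
    simp only [h1, Finset.sum_const, Finset.card_univ]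
    rw [hn, Nat.card_eq_fintype_card]
  have hpowinj : ∀ x y : D, x ^ n = y ^ n → x = y := by
    obtain ⟨k, -, hk⟩ := Nat.exists_mul_mod_eq_one_of_coprime (k := p) (n := n) (by rw [hn]; exact hQ)
      hpp.one_lt
    have hxk : ∀ x : D, (x ^ n) ^ k = x := by
      intro x
      rw [← pow_mul, pow_eq_pow_mod _ (hexp x), hk, pow_one]
    intro x y hxy
    rw [← hxk x, hxy, hxk]
  intro q hq x
  by_contra hqx
  -- the complement
  let y : D := n • x - π x
  have hy0 : π y = 0 := by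
    have h1 : π (π x) = n • π x := hπfixed _ (fun q hq => hπq q hq x)
    simp only [y, map_sub, map_nsmul, h1, sub_self]
  have hyne : y ≠ 0 := by
    intro h
    have h1 : n • x = π x := sub_eq_zero.mp h
    apply hqx
    have h2 : q (n • x) = n • x := by rw [h1]; exact hπq q hq x
    rw [hsmul, map_pow] at h2
    exact hpowinj _ _ h2
  have hsub : ∀ a : As, ∀ x ∈ π.ker, (a : MulAut D) x ∈ π.ker := by
    intro a x hx
    rw [AddMonoidHom.mem_ker] at hx ⊢
    rw [hπa a a.2, hx]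
    exact map_one (a : MulAut D)
  letI : MulAction As π.ker :=
    { smul := fun a x => ⟨(a : MulAut D) x, hsub a x x.2⟩
      one_smul := fun x => Subtype.ext rfl
      mul_smul := fun a b x => Subtype.ext rfl }
  have hsmulW : ∀ (a : As) (x : π.ker), ((a • x : π.ker) : D) = (a : MulAut D) x := fun _ _ => rfl
  have hdvd : p ∣ Nat.card π.ker := by
    have h1 : addOrderOf y = p := by
      apply addOrderOf_eq_prime
      · rw [hsmul]; exact hexp y
      · exact hyne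
    rw [← h1]
    exact AddSubgroup.addOrderOf_dvd_natCard _ hy0
  have hfix0 : (0 : π.ker) ∈ MulAction.fixedPoints As π.ker := by
    intro a
    apply Subtype.ext
    rw [hsmulW]
    exact map_one (a : MulAut D)
  obtain ⟨b, hb, hb0⟩ := hA.exists_fixed_point_of_prime_dvd_card_of_fixed_point π.ker hdvd hfix0
  have hbfix : ∀ a ∈ As, a (b : D) = b := by
    intro a ha
    have h1 := hb ⟨a, ha⟩
    have h2 := congrArg Subtype.val h1
    rwa [hsmulW] at h2
  have hbQ := hfix _ hbfix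
  have hπb := hπfixed _ hbQ
  have hb1 : π (b : D) = 0 := b.2
  rw [hb1, hsmul] at hπb
  have h3 : ((b : D)) ^ n = (1 : D) ^ n := by rw [← hπb, one_pow, hzero]
  have h4 := hpowinj _ _ h3
  apply hb0
  exact (Subtype.ext h4).symm

end Baer

end Cfsg.Agent.Lib.Components
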