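import Cfsg.Agent.Lib.KnownSimple.LabSU
import Cfsg.Agent.Lib.Classical.SpOrder

/-!
# `PSU₄(2)` and `PSp₄(3)`

The forty non-isotropic points of the unitary space over the field with four elements are
matched with the forty points of the symplectic space over the field with three elements, such
that generators of the unitary group act as explicit symplectic matrices.
-/

set_option autoImplicit false
set_option maxRecDepth 100000

namespace Cfsg.Agent.Lib.Components.U42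

open Cfsg.Agent.Lib.KnownSimple.Lab Cfsg.Agent.Lib.KnownSimple.LabMat Cfsg.Agent.Lib.KnownSimple.LabField
open Cfsg.Agent.Lib.KnownSimple.LabVec Cfsg.Agent.Lib.KnownSimple.LabSU Matrix

/-- The field automorphism. -/
def fr (c : ℕ) : ℕ := mul4 c c

/-- The root elements used. -/
def RL : List (List ℕ × ℕ) := [([1, 2, 3, 3], 1), ([1, 3, 3, 3], 1), ([1, 1, 1, 1], 1), ([3, 1, 3, 2], 1), ([1, 1, 1, 3], 1)]

/-- The letters as products of root elements. -/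
def LW (a : ℕ) : List ℕ := [a]

/-- The letters. -/
def Ls : List (List ℕ) := [[0, 3, 2, 2, 2, 0, 3, 3, 3, 2, 0, 1, 3, 2, 1, 0], [0, 2, 2, 2, 3, 0, 1, 1, 3, 1, 0, 1, 3, 1, 1, 0], [0, 1, 1, 1, 1, 0, 1, 1, 1, 1, 0, 1, 1, 1, 1, 0], [0, 3, 1, 2, 2, 0, 2, 3, 1, 3, 0, 2, 3, 2, 3, 0], [0, 1, 1, 2, 1, 0, 1, 2, 1, 1, 0, 2, 3, 3, 3, 0]]

/-- The partners of the letters. -/
def Ns : List (List ℕ) := [[2, 0, 0, 1, 0, 1, 2, 0, 0, 0, 2, 0, 0, 0, 0, 1], [1, 2, 0, 1, 1, 2, 2, 0, 0, 2, 1, 1, 1, 0, 2, 2], [0, 0, 0, 2, 0, 0, 1, 0, 0, 1, 0, 0, 2, 0, 0, 0], [2, 0, 0, 1, 1, 1, 2, 0, 0, 0, 2, 1, 0, 0, 0, 1], [0, 2, 0, 2, 0, 0, 1, 0, 0, 1, 0, 0, 2, 0, 2, 0]]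

/-- The permutations of the labels. -/
def Ps : List (List ℕ) := [[0, 34, 31, 22, 14, 24, 6, 27, 13, 38, 10, 35, 18, 8, 4, 15, 25, 17, 12, 37, 28, 40, 3, 23, 5, 16, 26, 7, 20, 33, 32, 2, 30, 29, 1, 11, 36, 19, 9, 39, 21], [0, 40, 37, 22, 13, 26, 33, 23, 18, 9, 30, 11, 14, 4, 12, 15, 31, 17, 8, 25, 34, 28, 3, 7, 24, 19, 5, 27, 21, 29, 10, 16, 32, 6, 20, 39, 38, 2, 36, 35, 1], [0, 26, 23, 14, 13, 33, 40, 30, 22, 9, 37, 11, 18, 4, 3, 38, 32, 35, 12, 19, 29, 21, 8, 2, 28, 27, 1, 25, 24, 20, 7, 31, 16, 5, 34, 17, 36, 10, 15, 39, 6], [0, 32, 31, 16, 4, 35, 21, 17, 24, 9, 28, 13, 39, 11, 26, 38, 3, 7, 18, 25, 20, 6, 37, 23, 8, 19, 14, 27, 10, 34, 33, 2, 1, 30, 29, 5, 36, 22, 15, 12, 40], [0, 26, 25, 16, 33, 40, 13, 21, 8, 29, 10, 17, 36, 6, 38, 32, 3, 11, 18, 37, 20, 7, 31, 28, 27, 2, 1, 24, 23, 9, 30, 22, 15, 4, 34, 35, 12, 19, 14, 39, 5]]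

/-- The labels of vectors over the field with four elements, as a list. -/
def T1L : List ℕ := [0, 13, 13, 13, 3, 0, 0, 0, 3, 0, 0, 0, 3, 0, 0, 0, 2, 0, 0, 0, 0, 26, 40, 33, 0, 32, 28, 39, 0, 38, 34, 27, 2, 0, 0, 0, 0, 27, 38, 34, 0, 33, 26, 40, 0, 39, 32, 28, 2, 0, 0, 0, 0, 28, 39, 32, 0, 34, 27, 38, 0, 40, 33, 26, 1, 0, 0, 0, 0, 23, 37, 30, 0, 29, 25, 36, 0, 35, 31, 24, 0, 14, 22, 18, 4, 0, 0, 0, 12, 0, 0, 0, 8, 0, 0, 0, 0, 17, 16, 21, 7, 0, 0, 0, 6, 0, 0, 0, 11, 0, 0, 0, 0, 20, 19, 15, 10, 0, 0, 0, 9, 0, 0, 0, 5, 0, 0, 0, 1, 0, 0, 0, 0, 24, 35, 31, 0, 30, 23, 37, 0, 36, 29, 25, 0, 15, 20, 19, 5, 0, 0, 0, 10, 0, 0, 0, 9, 0, 0, 0, 0, 18, 14, 22, 8, 0, 0, 0, 4, 0, 0, 0, 12, 0, 0, 0, 0, 21, 17, 16, 11, 0, 0, 0, 7, 0, 0, 0, 6, 0, 0, 0, 1, 0, 0, 0, 0, 25, 36, 29, 0, 31, 24, 35, 0, 37, 30, 23, 0, 16, 21, 17, 6, 0, 0, 0, 11, 0, 0, 0, 7, 0, 0, 0, 0, 19, 15, 20, 9, 0, 0, 0, 5, 0, 0, 0, 10, 0, 0,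 0, 0, 22, 18, 14, 12, 0, 0, 0, 8, 0, 0, 0, 4, 0, 0, 0]

/-- The labels of vectors over the field with three elements, as a list. -/
def T2L : List ℕ := [0, 26, 26, 23, 4, 14, 23, 14, 4, 2, 27, 28, 31, 7, 20, 36, 17, 10, 2, 28, 27, 36, 10, 17, 31, 20, 7, 1, 34, 39, 24, 5, 15, 25, 16, 6, 3, 32, 38, 29, 8, 21, 35, 19, 12, 13, 33, 40, 37, 11, 18, 30, 22, 9, 1, 39, 34, 25, 6, 16, 24, 15, 5, 13, 40, 33, 30, 9, 22, 37, 18, 11, 3, 38, 32, 35, 12, 19, 29, 21, 8]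

/-- The isotropic vectors. -/
def ptL : List ℕ := [249, 175, 6, 151, 44, 86, 122, 255, 223, 185, 110, 194, 213, 121, 169, 56, 208, 20, 72, 149, 129, 34, 117, 231, 19, 196, 187, 101, 105, 125, 127, 222, 132, 160, 112, 195, 109, 237, 119, 123, 239, 181, 183, 50, 106, 215, 126, 235, 219, 140, 76, 24, 80, 234, 238, 154, 111, 170, 51, 11, 144, 214, 33, 130, 218, 165, 157, 173, 7, 18, 174, 200, 204, 186, 224, 233, 28, 221, 153, 103, 52, 189, 217, 167, 36, 14, 85, 230, 191, 229, 65, 176, 89, 67, 240, 182, 13, 87, 94, 254, 250, 136, 131, 15, 150, 158, 91, 251, 96, 68, 10, 5, 107, 166, 17, 190, 95, 171, 118, 247, 159, 66, 102, 90, 253, 155, 60, 246, 9, 245, 93, 35, 49, 193, 40]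

/-- The tree. -/
def prL : List ℕ := [0, 0, 0, 0, 0, 1, 1, 2, 2, 2, 3, 3, 4, 4, 5, 5, 6, 6, 7, 7, 8, 8, 8, 9, 9, 10, 10, 11, 11, 11, 12, 13, 13, 13, 14, 14, 15, 15, 16, 16, 18, 18, 18, 19, 19, 20, 20, 20, 21, 22, 23, 23, 23, 24, 24, 25, 25, 25, 27, 27, 28, 28, 30, 30, 34, 34, 35, 35, 36, 37, 38, 38, 39, 40, 41, 42, 42, 42, 43, 43, 44, 45, 46, 46, 48, 48, 49, 50, 51, 51, 53, 54, 54, 55, 55, 56, 57, 57, 59, 60, 60, 61, 61, 61, 62, 62, 63, 65, 66, 66, 67, 70, 72, 72, 73, 74, 74, 76, 76, 78, 80, 81, 82, 83, 84, 84, 89, 90, 95, 98, 100, 100, 106, 112, 118]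

/-- The tree. -/
def gnL : List ℕ := [0, 1, 2, 3, 4, 0, 4, 0, 3, 4, 0, 2, 0, 2, 2, 3, 2, 3, 3, 4, 0, 1, 2, 0, 2, 2, 4, 0, 1, 4, 2, 0, 1, 3, 3, 4, 2, 4, 0, 1, 0, 1, 2, 0, 2, 1, 2, 4, 0, 0, 1, 2, 3, 0, 1, 0, 1, 3, 1, 3, 0, 4, 0, 1, 2, 4, 0, 3, 4, 2, 3, 4, 3, 2, 2, 0, 1, 4, 1, 2, 0, 4, 0, 3, 2, 4, 3, 2, 0, 1, 1, 0, 3, 3, 4, 3, 0, 1, 2, 3, 4, 0, 2, 3, 3, 4, 3, 0, 1, 3, 0, 1, 0, 4, 1, 0, 4, 3, 4, 3, 1, 2, 4, 1, 3, 4, 3, 3, 4, 1, 0, 3, 4, 2, 0]

/-- The positions. -/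
def posL : List ℕ := [0, 0, 0, 0, 0, 111, 2, 68, 0, 128, 110, 59, 0, 96, 85, 103, 0, 114, 69, 24, 17, 0, 0, 0, 51, 0, 0, 0, 76, 0, 0, 0, 0, 62, 21, 131, 84, 0, 0, 0, 134, 0, 0, 0, 4, 0, 0, 0, 0, 132, 43, 58, 80, 0, 0, 0, 15, 0, 0, 0, 126, 0, 0, 0, 0, 90, 121, 93, 109, 0, 0, 0, 18, 0, 0, 0, 50, 0, 0, 0, 52, 0, 0, 0, 0, 86, 5, 97, 0, 92, 123, 106, 0, 130, 98, 116, 108, 0, 0, 0, 0, 27, 122, 79, 0, 28, 44, 112, 0, 36, 10, 56, 34, 0, 0, 0, 0, 22, 118, 38, 0, 13, 6, 39, 0, 29, 46, 30, 0, 20, 63, 102, 32, 0, 0, 0, 101, 0, 0, 0, 49, 0, 0, 0, 60, 0, 0, 0, 0, 19, 104, 3, 0, 78, 55, 125, 0, 66, 105, 120, 33, 0, 0, 0, 0, 65, 113, 83, 0, 14, 57, 117, 0, 67, 70, 1, 91, 0, 0, 0, 0, 41, 95, 42, 0, 9, 73, 26, 0, 81, 115, 88, 0, 133, 11, 35, 25, 0, 0, 0, 71, 0, 0, 0, 72, 0, 0, 0, 16, 0, 0, 0, 0, 12, 61, 45, 0, 82, 64, 48, 0, 77, 31, 8, 74, 0, 0, 0, 0, 89, 87, 23, 0, 75, 53, 47, 0, 37, 54, 40, 94, 0, 0, 0,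 0, 129, 127, 119, 0, 0, 100, 107, 0, 124, 99, 7]

/-- The labels over the field with four elements. -/
def T1 (c : ℕ) : ℕ := T1L.getD c 0 % 41
/-- The labels over the field with three elements. -/
def T2 (c : ℕ) : ℕ := T2L.getD c 0 % 41
/-- A permutation of the labels. -/
def Pk (k l : ℕ) : ℕ := (Ps.getD k []).getD l 0

/-- Addition in the field with three elements. -/
def add3 (a b : ℕ) : ℕ := (a + b) % 3
/-- Multiplication in the field with three elements. -/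
def mul3 (a b : ℕ) : ℕ := (a * b) % 3

theorem cast_mod3 {K : Type*} [Field K] (h3 : (3 : K) = 0) (n : ℕ) : ((n % 3 : ℕ) : K) = n := by
  conv_rhs => rw [← Nat.div_add_mod n 3]
  push_cast
  rw [h3, zero_mul, zero_add]

theorem exists_rep3 {K : Type*} [Field K] [Fintype K] (hK : Fintype.card K = 3) :
    Nonempty (Rep K 3 add3 mul3) := by
  have h3 : (3 : K) = 0 := by
    have := FiniteField.cast_card_eq_zero K
    rw [hK] at this
    exact_mod_cast this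
  have h2 : (2 : K) ≠ 0 := by
    intro h
    have : (1 : K) = 0 := by linear_combination h3 - h
    exact one_ne_zero this
  have hinj : ∀ x y : ℕ, x < 3 → y < 3 → (x : K) = (y : K) → x = y := by
    intro x y hx hy h
    interval_cases x <;> interval_cases y <;> first | rfl | skip
    all_goals exfalso
    all_goals norm_num at h
    all_goals first
      | exact h2 h
      | exact h2 h.symm
      | exact one_ne_zero (by linear_combination h)
      | exact one_ne_zero (by linear_combination -h)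
  have hbij : Function.Surjective (fun c : Fin 3 => ((c : ℕ) : K)) := by
    have h6 : Function.Injective (fun c : Fin 3 => ((c : ℕ) : K)) := fun x y e =>
      Fin.ext (hinj _ _ x.2 y.2 e)
    exact ((Fintype.bijective_iff_injective_and_card _).mpr ⟨h6, by simp [hK]⟩).2
  refine ⟨⟨fun c => (c : K), ?_, ?_, ?_, ?_, hinj, ?_⟩⟩
  · intro a b
    simp only [add3]
    rw [cast_mod3 h3]
    push_cast
    rfl
  · intro a b
    simp only [mul3]
    rw [cast_mod3 h3]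
    push_cast
    rfl
  · exact Nat.cast_zero
  · exact Nat.cast_one
  · intro z
    obtain ⟨c, hc⟩ := hbij z
    exact ⟨c, c.2, hc⟩

/-! ### Labels of vectors -/

section Labels

variable {E : Type*} [Field E] {Q : ℕ} {add mul : ℕ → ℕ → ℕ} (R : Rep E Q add mul) (T : ℕ → ℕ)

/-- The code of a field element. -/
noncomputable def idx (z : E) : ℕ := Classical.choose (R.hsurj z)

theorem idx_spec (z : E) : idx R z < Q ∧ R.φ (idx R z) = z := Classical.choose_spec (R.hsurj z)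

theorem idx_phi {d : ℕ} (hd : d < Q) : idx R (R.φ d) = d :=
  R.hinj _ _ (idx_spec R _).1 hd (idx_spec R _).2

/-- The label of a vector. -/
noncomputable def lab (v : Fin 4 → E) : ℕ :=
  T (idx R (v 0) + Q * idx R (v 1) + Q ^ 2 * idx R (v 2) + Q ^ 3 * idx R (v 3))

theorem lab_toV (hQ : Q = 3 ∨ Q = 4) {c : ℕ} (hc : c < Q ^ 4) :
    lab R T (toV R.φ 4 (dgC Q 4 c)) = T c := by
  have hQ0 : 0 < Q := by rcases hQ with rfl | rfl <;> norm_num
  have h : ∀ i : Fin 4, idx R (toV R.φ 4 (dgC Q 4 c) i) = c / Q ^ (i : ℕ) % Q := by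
    intro i
    simp only [toV, dgC]
    rw [getD_range_map' _ i.2]
    exact idx_phi R (Nat.mod_lt _ hQ0)
  simp only [lab, h]
  congr 1
  rcases hQ with rfl | rfl
  · norm_num at hc ⊢
    omega
  · norm_num at hc ⊢
    omega

/-- The code of a list of four digits. -/
def enc (Q : ℕ) (l : List ℕ) : ℕ :=
  l.getD 0 0 + Q * l.getD 1 0 + Q ^ 2 * l.getD 2 0 + Q ^ 3 * l.getD 3 0

/-- A coded matrix acts on the labels as a given map. -/
def chkV (add mul : ℕ → ℕ → ℕ) (Q : ℕ) (T π : ℕ → ℕ) (A : List ℕ) (c : ℕ) : Bool :=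
  Nat.blt (enc Q (mulVC add mul 4 A (dgC Q 4 c))) (Q ^ 4) &&
    (dgC Q 4 (enc Q (mulVC add mul 4 A (dgC Q 4 c))) == mulVC add mul 4 A (dgC Q 4 c)) &&
    Nat.beq (T (enc Q (mulVC add mul 4 A (dgC Q 4 c)))) (π (T c))

theorem lab_mul [Fintype E] (hQ : Q = 3 ∨ Q = 4) {π : ℕ → ℕ} {A : List ℕ}
    (h : ∀ c < Q ^ 4, chkV add mul Q T π A c = true) (v : Fin 4 → E) :
    lab R T (toM R.φ 4 A *ᵥ v) = π (lab R T v) := by
  obtain ⟨c, hc, rfl⟩ := toV_dg (n := 4) R v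
  have h1 := h c hc
  simp only [chkV, Bool.and_eq_true, Nat.blt_eq, beq_iff_eq, Nat.beq_eq] at h1
  obtain ⟨⟨h2, h3⟩, h4⟩ := h1
  rw [← toV_mulVC R.hadd R.hmul R.h0, ← h3, lab_toV R T hQ h2, h4, lab_toV R T hQ hc]

end Labels

/-! ### Symplectic matrices from codes -/

/-- The two blocks as one index set. -/
def e2 : Fin 2 ⊕ Fin 2 ≃ Fin 4 := finSumFinEquiv

/-- The form, as a code. -/
def Jc : List ℕ := [0, 0, 2, 0, 0, 0, 0, 2, 1, 0, 0, 0, 0, 1, 0, 0]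

/-- The transpose of a code. -/
def trC (A : List ℕ) : List ℕ :=
  (List.range (4 * 4)).map fun e => A.getD ((e % 4) * 4 + e / 4) 0

section Sp

variable {K : Type*} [Field K] (R : Rep K 3 add3 mul3)

theorem phi_two : R.φ 2 = -1 := by
  have h : R.φ (add3 1 2) = R.φ 1 + R.φ 2 := R.hadd 1 2
  have h0 : add3 1 2 = 0 := rfl
  rw [h0, R.h0, R.h1] at h
  linear_combination -h

theorem toM_trC (A : List ℕ) : toM R.φ 4 (trC A) = (toM R.φ 4 A)ᵀ := by
  ext i j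
  simp only [toM, Matrix.of_apply, trC, Matrix.transpose_apply]
  rw [getD_range_map _ i.2 j.2, idx_div j.2, idx_mod j.2]

theorem J_eq : Matrix.J (Fin 2) K = (toM R.φ 4 Jc).submatrix e2 e2 := by
  have h2 := phi_two R
  have he : ∀ a : Fin 2, ((e2 (Sum.inl a) : Fin 4) : ℕ) = a := fun a => rfl
  have he' : ∀ a : Fin 2, ((e2 (Sum.inr a) : Fin 4) : ℕ) = 2 + a := fun a => rfl
  ext i j
  rcases i with i | i <;> rcases j with j | j <;> fin_cases i <;> fin_cases j <;>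
    simp [Matrix.J, toM, Jc, he, he', R.h0, R.h1, h2]

/-- The matrix of a code, on the two blocks. -/
def spM (A : List ℕ) : Matrix (Fin 2 ⊕ Fin 2) (Fin 2 ⊕ Fin 2) K := (toM R.φ 4 A).submatrix e2 e2

theorem spM_mem {A : List ℕ} (h : mulC add3 mul3 4 (mulC add3 mul3 4 A Jc) (trC A) = Jc) :
    spM R A ∈ Matrix.symplecticGroup (Fin 2) K := by
  rw [SymplecticGroup.mem_iff, spM, J_eq R, Matrix.transpose_submatrix,
    Matrix.submatrix_mul_equiv, Matrix.submatrix_mul_equiv]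
  congr 1
  rw [← toM_trC, ← toM_mulC R.hadd R.hmul R.h0, ← toM_mulC R.hadd R.hmul R.h0, h]

/-- The symplectic group on coordinates numbered from `0` to `3`. -/
def spHom4 (K : Type*) [Field K] : Matrix.symplecticGroup (Fin 2) K →* Matrix (Fin 4) (Fin 4) K where
  toFun y := (y.1 : Matrix (Fin 2 ⊕ Fin 2) (Fin 2 ⊕ Fin 2) K).submatrix e2.symm e2.symm
  map_one' := Matrix.submatrix_one_equiv _
  map_mul' x y := (Matrix.submatrix_mul_equiv _ _ _ _ _).symm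

theorem spHom4_mk {A : List ℕ} (h : spM R A ∈ Matrix.symplecticGroup (Fin 2) K) :
    spHom4 K ⟨spM R A, h⟩ = toM R.φ 4 A := by
  change (spM R A).submatrix e2.symm e2.symm = _
  rw [spM, Matrix.submatrix_submatrix]
  simp

end Sp

/-! ### An abstract criterion -/

theorem iso_of_graph {A B : Type*} [Group A] [Group B] [Finite A] [Finite B] (H : Subgroup (A × B))
    (hsurj : ∀ a, ∃ b, (a, b) ∈ H) (hinj : ∀ a, (a, (1 : B)) ∈ H → a = 1)
    (hz : Subgroup.center A = ⊥) (m : B) (hm : ((1 : A), m) ∈ H) (hm1 : m ≠ 1)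
    (hmc : m ∈ Subgroup.center B) (hcard : Nat.card B = 2 * Nat.card A) :
    Nonempty (A ≃* B ⧸ Subgroup.center B) := by
  classical
  let π₁ : H →* A := (MonoidHom.fst A B).comp H.subtype
  let π₂ : H →* B := (MonoidHom.snd A B).comp H.subtype
  have h1 : Function.Surjective π₁ := by
    intro a
    obtain ⟨b, hb⟩ := hsurj a
    exact ⟨⟨(a, b), hb⟩, rfl⟩
  have h2 : Function.Injective π₂ := by
    rw [injective_iff_map_eq_one]
    rintro ⟨⟨a, b⟩, hp⟩ h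
    have hb : b = 1 := h
    subst hb
    have ha := hinj a hp
    subst ha
    rfl
  let m' : H := ⟨(1, m), hm⟩
  have hm'1 : m' ≠ 1 := by
    intro h
    apply hm1
    exact congrArg π₂ h
  have hm'k : m' ∈ π₁.ker := rfl
  have hA0 : 0 < Nat.card A := Nat.card_pos
  have hcH : Nat.card H = Nat.card π₁.ker * Nat.card A := by
    rw [Subgroup.card_eq_card_quotient_mul_card_subgroup π₁.ker,
      Nat.card_congr (QuotientGroup.quotientKerEquivOfSurjective π₁ h1).toEquiv, mul_comm]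
  have hk2 : 2 ≤ Nat.card π₁.ker := by
    have hne : π₁.ker ≠ ⊥ := by
      intro h
      rw [h, Subgroup.mem_bot] at hm'k
      exact hm'1 hm'k
    exact (Subgroup.one_lt_card_iff_ne_bot _).mpr hne
  have hle : Nat.card H ≤ Nat.card B := Nat.card_le_card_of_injective π₂ h2
  have hk : Nat.card π₁.ker = 2 := by
    rw [hcH, hcard] at hle
    have := Nat.le_of_mul_le_mul_right hle hA0
    omega
  have h2' : Function.Bijective π₂ := by
    apply h2.bijective_of_nat_card_le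
    rw [hcH, hk, hcard]
  let Φ : H →* B ⧸ Subgroup.center B := (QuotientGroup.mk' _).comp π₂
  have hΦ : Function.Surjective Φ := (QuotientGroup.mk'_surjective _).comp h2'.2
  have hker : π₁.ker = Φ.ker := by
    ext p
    constructor
    · intro hp
      haveI : Fact (Nat.Prime 2) := ⟨Nat.prime_two⟩
      let m'' : π₁.ker := ⟨m', hm'k⟩
      have hm''1 : m'' ≠ 1 := fun h => hm'1 (congrArg Subtype.val h)
      have hmem := mem_zpowers_of_prime_card (G := π₁.ker) (p := 2) hk (g := m'') (g' := ⟨p, hp⟩) hm''1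
      obtain ⟨n, hn⟩ := hmem
      have hn' : p = m' ^ n := by
        have := congrArg Subtype.val hn
        simpa [m''] using this.symm
      rw [MonoidHom.mem_ker]
      change QuotientGroup.mk (π₂ p) = 1
      rw [QuotientGroup.eq_one_iff, hn', map_zpow]
      exact zpow_mem hmc n
    · intro hp
      rw [MonoidHom.mem_ker] at hp ⊢
      have hc : π₂ p ∈ Subgroup.center B := (QuotientGroup.eq_one_iff _).mp hp
      have hc1 : π₁ p ∈ Subgroup.center A := by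
        rw [Subgroup.mem_center_iff]
        intro a
        obtain ⟨q, rfl⟩ := h1 a
        rw [← map_mul, ← map_mul]
        congr 1
        apply h2
        rw [map_mul, map_mul]
        exact (Subgroup.mem_center_iff.mp hc _)
      rw [hz, Subgroup.mem_bot] at hc1
      exact hc1
  exact ⟨(QuotientGroup.quotientKerEquivOfSurjective π₁ h1).symm.trans
    ((QuotientGroup.quotientMulEquivOfEq hker).trans
      (QuotientGroup.quotientKerEquivOfSurjective Φ hΦ))⟩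

/-! ### The pairs acting compatibly -/

section Main

variable {F K : Type*} [Field F] [Fintype F] [Field K] [Fintype K]
  (RF : Rep F 4 add4 mul4) (RK : Rep K 3 add3 mul3)

/-- Two vectors correspond. -/
def Rl (v : Fin 4 → F) (w : Fin 4 → K) : Prop :=
  lab RF T1 v = lab RK T2 w ∧ lab RF T1 v ≠ 0

/-- The pairs of elements acting compatibly on the labels. -/
def HH : Subgroup (Cfsg.SU 4 F 2 × Matrix.symplecticGroup (Fin 2) K) where
  carrier := {p | ∀ v w, Rl RF RK (suHom 4 F 2 p.1 *ᵥ v) (spHom4 K p.2 *ᵥ w) ↔ Rl RF RK v w}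
  mul_mem' := by
    intro a b ha hb v w
    simp only [Prod.fst_mul, Prod.snd_mul, map_mul, ← Matrix.mulVec_mulVec]
    rw [ha, hb]
  one_mem' := by
    intro v w
    simp
  inv_mem' := by
    intro a ha v w
    have h := ha (suHom 4 F 2 a⁻¹.1 *ᵥ v) (spHom4 K a⁻¹.2 *ᵥ w)
    rw [Matrix.mulVec_mulVec, Matrix.mulVec_mulVec, ← map_mul, ← map_mul] at h
    simp only [Prod.fst_inv, Prod.snd_inv, mul_inv_cancel, map_one, Matrix.one_mulVec] at h
    exact h.symm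

theorem mem_HH {x : Cfsg.SU 4 F 2} {y : Matrix.symplecticGroup (Fin 2) K} {L N : List ℕ} {π : ℕ → ℕ}
    (hx : suHom 4 F 2 x = toM RF.φ 4 L) (hy : spHom4 K y = toM RK.φ 4 N)
    (h1 : ∀ c < 4 ^ 4, chkV add4 mul4 4 T1 π L c = true)
    (h2 : ∀ c < 3 ^ 4, chkV add3 mul3 3 T2 π N c = true)
    (h3 : π 0 = 0) (h4 : ∀ i < 41, ∀ j < 41, π i = π j → i = j) : (x, y) ∈ HH RF RK := by
  intro v w
  change Rl RF RK (suHom 4 F 2 x *ᵥ v) (spHom4 K y *ᵥ w) ↔ _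
  rw [hx, hy]
  have a1 := lab_mul RF T1 (Or.inr rfl) h1 v
  have a2 := lab_mul RK T2 (Or.inl rfl) h2 w
  have b1 : lab RF T1 v < 41 := Nat.mod_lt _ (by norm_num)
  have b2 : lab RK T2 w < 41 := Nat.mod_lt _ (by norm_num)
  simp only [Rl, a1, a2]
  constructor
  · rintro ⟨h5, h6⟩
    have h7 := h4 _ b1 _ b2 h5
    refine ⟨h7, fun h8 => h6 ?_⟩
    rw [h8, h3]
  · rintro ⟨h5, h6⟩
    refine ⟨by rw [h5], ?_⟩
    intro h8
    exact h6 (h4 _ b1 _ (by norm_num) (h8.trans h3.symm))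

/-- The negative of the identity, as a code. -/
def Nneg : List ℕ := [2, 0, 0, 0, 0, 2, 0, 0, 0, 0, 2, 0, 0, 0, 0, 2]

theorem c_RL : ∀ p ∈ RL, uvOK add4 mul4 fr 4 p.1 p.2 = true := by decide +kernel
theorem c_LW : ∀ a < 5, (∀ c ∈ LW a, c < RL.length) ∧
    wordC add4 mul4 4 (rootL add4 mul4 fr 4 RL) (LW a) = Ls.getD a [] := by decide +kernel
theorem c_sp : ∀ k < 5, mulC add3 mul3 4 (mulC add3 mul3 4 (Ns.getD k []) Jc) (trC (Ns.getD k [])) = Jc := by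
  decide +kernel
theorem c_spn : mulC add3 mul3 4 (mulC add3 mul3 4 Nneg Jc) (trC Nneg) = Jc := by decide +kernel
theorem c_v1 : ∀ k < 5, ∀ c < 4 ^ 4, chkV add4 mul4 4 T1 (Pk k) (Ls.getD k []) c = true := by decide +kernel
theorem c_v2 : ∀ k < 5, ∀ c < 3 ^ 4, chkV add3 mul3 3 T2 (Pk k) (Ns.getD k []) c = true := by decide +kernel
theorem c_P0 : ∀ k < 5, Pk k 0 = 0 := by decide +kernel
theorem c_Pi : ∀ k < 5, ∀ i < 41, ∀ j < 41, Pk k i = Pk k j → i = j := by decide +kernel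
theorem c_vI : ∀ c < 4 ^ 4, chkV add4 mul4 4 T1 (fun l => l) (idC 4) c = true := by decide +kernel
theorem c_vN : ∀ c < 3 ^ 4, chkV add3 mul3 3 T2 (fun l => l) Nneg c = true := by decide +kernel

/-- The isotropic vectors. -/
def ptI (j : ℕ) : List ℕ := dgC 4 4 (ptL.getD j 0)
/-- The tree. -/
def pr (j : ℕ) : ℕ := prL.getD j 0
/-- The tree. -/
def gn (j : ℕ) : ℕ := gnL.getD j 0
/-- The positions. -/
def pos (c : ℕ) : ℕ := posL.getD c 0

theorem c_w0 : (∀ a ∈ [0], a < 5) ∧ wordC add4 mul4 4 Ls [0] = rootC add4 mul4 fr 4 (ptI 0) 1 := by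
  decide +kernel
theorem c_uv : uvOK add4 mul4 fr 4 (ptI 0) 1 = true := by decide +kernel
theorem c_treeD : ∀ j < 135, 0 < j → pr j < j ∧ gn j < 5 ∧
    mulVC add4 mul4 4 (Ls.getD (gn j) []) (ptI (pr j)) = ptI j := by decide +kernel
theorem c_cov : ∀ c < 4 ^ 4, hermC add4 mul4 fr 4 (dgC 4 4 c) (dgC 4 4 c) < 4 ∧
    (Nat.beq (hermC add4 mul4 fr 4 (dgC 4 4 c) (dgC 4 4 c)) 0 = true →
      c = 0 ∨ (pos c < 135 ∧ ptI (pos c) = dgC 4 4 c)) := by decide +kernel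
theorem c_s : ∀ c < 4, add4 c (fr c) < 4 ∧ (Nat.beq (add4 c (fr c)) 0 = true →
    c = 0 ∨ c = 1 ∨ c = fr 1) := by decide +kernel

/-- Six non-isotropic vectors. -/
def sixC : List ℕ := [1, 4, 16, 64, 21, 84]

theorem c_sc : ∀ c0 ∈ sixC, c0 < 4 ^ 4 ∧ T1 c0 ≠ 0 ∧ (∃ d < 3 ^ 4, T2 d = T1 c0) ∧
    ∀ c < 4 ^ 4, T1 c = T1 c0 → ∃ l < 4, dgC 4 4 c = (dgC 4 4 c0).map (mul4 l) := by decide +kernel

theorem eigen_of_fix {x : Cfsg.SU 4 F 2} (hx : (x, (1 : Matrix.symplecticGroup (Fin 2) K)) ∈ HH RF RK)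
    {c0 : ℕ} (hc : c0 ∈ sixC) :
    ∃ l : F, suHom 4 F 2 x *ᵥ toV RF.φ 4 (dgC 4 4 c0) = l • toV RF.φ 4 (dgC 4 4 c0) := by
  obtain ⟨hc0lt, h1, ⟨d, hd, h2⟩, h3⟩ := c_sc c0 hc
  have hu : lab RF T1 (toV RF.φ 4 (dgC 4 4 c0)) = T1 c0 := lab_toV RF T1 (Or.inr rfl) hc0lt
  have hw : lab RK T2 (toV RK.φ 4 (dgC 3 4 d)) = T2 d := lab_toV RK T2 (Or.inl rfl) hd
  have hR : Rl RF RK (toV RF.φ 4 (dgC 4 4 c0)) (toV RK.φ 4 (dgC 3 4 d)) :=
    ⟨by rw [hu, hw, h2], by rw [hu]; exact h1⟩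
  have h4 := (hx _ _).mpr hR
  change Rl RF RK (suHom 4 F 2 x *ᵥ _) (spHom4 K 1 *ᵥ _) at h4
  rw [map_one, Matrix.one_mulVec] at h4
  obtain ⟨c, hc', hcv⟩ := toV_dg (n := 4) RF (suHom 4 F 2 x *ᵥ toV RF.φ 4 (dgC 4 4 c0))
  have h5 : T1 c = T1 c0 := by
    have h6 := h4.1
    rw [← hcv, lab_toV RF T1 (Or.inr rfl) hc', hw, h2] at h6
    exact h6
  obtain ⟨l, -, hl⟩ := h3 c hc' h5
  refine ⟨RF.φ l, ?_⟩
  rw [← hcv, hl]
  ext i
  simp only [toV, dgC, Pi.smul_apply, smul_eq_mul, List.map_map]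
  rw [getD_range_map' _ i.2, getD_range_map' _ i.2]
  simp only [Function.comp_apply, RF.hmul]

theorem center_su42 (hF' : Fintype.card F = 2 ^ 2) : Subgroup.center (Cfsg.SU 4 F 2) = ⊥ := by
  apply Subgroup.eq_bot_of_card_eq
  rw [Cfsg.Agent.Lib.Classical.card_center_su hF' (by norm_num)]
  norm_num

theorem fix_one (hF' : Fintype.card F = 2 ^ 2) {x : Cfsg.SU 4 F 2}
    (hx : (x, (1 : Matrix.symplecticGroup (Fin 2) K)) ∈ HH RF RK) : x = 1 := by
  obtain ⟨l0, h0⟩ := eigen_of_fix RF RK hx (c0 := 1) (by decide)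
  obtain ⟨l1, h1⟩ := eigen_of_fix RF RK hx (c0 := 4) (by decide)
  obtain ⟨l2, h2⟩ := eigen_of_fix RF RK hx (c0 := 16) (by decide)
  obtain ⟨l3, h3⟩ := eigen_of_fix RF RK hx (c0 := 64) (by decide)
  obtain ⟨l4, h4⟩ := eigen_of_fix RF RK hx (c0 := 21) (by decide)
  obtain ⟨l5, h5⟩ := eigen_of_fix RF RK hx (c0 := 84) (by decide)
  have hv : ∀ (c : ℕ) (p : List ℕ), dgC 4 4 c = p → toV RF.φ 4 (dgC 4 4 c) = toV RF.φ 4 p := by
    intro c p h
    rw [h]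
  rw [hv 1 [1, 0, 0, 0] (by decide)] at h0
  rw [hv 4 [0, 1, 0, 0] (by decide)] at h1
  rw [hv 16 [0, 0, 1, 0] (by decide)] at h2
  rw [hv 64 [0, 0, 0, 1] (by decide)] at h3
  rw [hv 21 [1, 1, 1, 0] (by decide)] at h4
  rw [hv 84 [0, 1, 1, 1] (by decide)] at h5
  set X := suHom 4 F 2 x with hXdef
  have hφ0 := RF.h0
  have hφ1 := RF.h1
  have key : ∀ (p : List ℕ) (l : F), X *ᵥ toV RF.φ 4 p = l • toV RF.φ 4 p → ∀ a : Fin 4,
      X a 0 * RF.φ (p.getD 0 0) + X a 1 * RF.φ (p.getD 1 0) + X a 2 * RF.φ (p.getD 2 0) +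
        X a 3 * RF.φ (p.getD 3 0) = l * RF.φ (p.getD a 0) := by
    intro p l h a
    have := congrFun h a
    simpa [Matrix.mulVec, dotProduct, Fin.sum_univ_four, toV] using this
  have k0 := key _ _ h0
  have k1 := key _ _ h1
  have k2 := key _ _ h2
  have k3 := key _ _ h3
  have k4 := key _ _ h4
  have k5 := key _ _ h5
  simp only [List.getD_cons_zero, List.getD_cons_succ, hφ0, hφ1, mul_zero, mul_one, add_zero, zero_add] at k0 k1 k2 k3 k4 k5
  have a00 := k0 0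
  have a10 := k0 1
  have a20 := k0 2
  have a30 := k0 3
  have a01 := k1 0
  have a11 := k1 1
  have a21 := k1 2
  have a31 := k1 3
  have a02 := k2 0
  have a12 := k2 1
  have a22 := k2 2
  have a32 := k2 3
  have a03 := k3 0
  have a13 := k3 1
  have a23 := k3 2
  have a33 := k3 3
  have b0 := k4 0
  have b1 := k4 1
  have b2 := k4 2
  have c1 := k5 1
  have c2 := k5 2
  have c3 := k5 3
  have h3v : ((3 : Fin 4) : ℕ) = 3 := rfl
  simp only [Fin.isValue, Fin.val_zero, Fin.val_one, Fin.val_two, h3v, List.getD_cons_zero, List.getD_cons_succ,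
    hφ0, hφ1, mul_zero, mul_one] at a00 a10 a20 a30 a01 a11 a21 a31 a02 a12 a22 a32 a03 a13 a23 a33 b0 b1 b2 c1 c2 c3
  have e4 : l4 = l0 := by
    rw [a00, a01, a02] at b0
    simpa using b0.symm
  have e1 : l1 = l0 := by
    rw [a10, a11, a12] at b1
    rw [← e4, ← b1]
    simp
  have e2 : l2 = l0 := by
    rw [a20, a21, a22] at b2
    rw [← e4, ← b2]
    simp
  have e5 : l5 = l0 := by
    rw [a11, a12, a13] at c1
    rw [← e1, ← c1]
    simp
  have e3 : l3 = l0 := by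
    rw [a31, a32, a33] at c3
    rw [← e5, ← c3]
    simp
  have hX : X = l0 • (1 : Matrix (Fin 4) (Fin 4) F) := by
    ext a b
    fin_cases a <;> fin_cases b <;>
      simp [a00, a10, a20, a30, a01, a11, a21, a31, a02, a12, a22, a32, a03, a13, a23, a33, e1, e2, e3]
  have hc : x ∈ Subgroup.center (Cfsg.SU 4 F 2) := by
    rw [Subgroup.mem_center_iff]
    intro g
    apply suHom_inj
    rw [map_mul, map_mul, ← hXdef, hX]
    simp
  rw [center_su42 hF', Subgroup.mem_bot] at hc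
  exact hc

omit [Field K] [Fintype K] in
theorem card_su42 (hF' : Fintype.card F = 2 ^ 2) : Nat.card (Cfsg.SU 4 F 2) = 25920 := by
  have h := Cfsg.Agent.Lib.Classical.card_su (n := 4) hF' (by norm_num)
  have h2 : ∏ i ∈ Finset.range 4, (if Even i then 2 ^ (i + 1) + 1 else 2 ^ (i + 1) - 1) = 1215 := by decide
  rw [h2] at h
  norm_num at h
  omega

/-- The isomorphism. -/
theorem main_iso (hF : Fintype.card F = 4) (hK : Fintype.card K = 3) :
    Nonempty (Cfsg.PSU 4 F 2 ≃* Cfsg.PSp 2 K) := by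
  classical
  have hF' : Fintype.card F = 2 ^ 2 := by rw [hF]; norm_num
  obtain ⟨RF⟩ := exists_rep4 hF
  obtain ⟨RK⟩ := exists_rep3 hK
  have hfr : ∀ c, RF.φ (fr c) = RF.φ c ^ 2 := by
    intro c
    simp only [fr, RF.hmul]
    ring
  let γ : ℕ → Cfsg.SU 4 F 2 := suLetter hF' RF.φ RL LW
  have hγ : ∀ a < 5, suHom 4 F 2 (γ a) = toM RF.φ 4 (Ls.getD a []) := by
    intro a ha
    obtain ⟨h1, h2⟩ := c_LW a ha
    rw [show γ a = suLetter hF' RF.φ RL LW a from rfl, suLetter_val RF hfr hF' c_RL h1, h2]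
  have hclo := su_closure RF hF' hfr (by norm_num) (by norm_num) hγ 1 135 ptI pr gn pos (by norm_num)
    [0] c_w0.1 c_w0.2 c_uv (fun j h0 hj => c_treeD j hj h0) c_cov c_s
  let y : ℕ → Matrix.symplecticGroup (Fin 2) K := fun k =>
    if h : k < 5 then ⟨spM RK (Ns.getD k []), spM_mem RK (c_sp k h)⟩ else 1
  have hy : ∀ k < 5, spHom4 K (y k) = toM RK.φ 4 (Ns.getD k []) := by
    intro k hk
    simp only [y, dif_pos hk]
    exact spHom4_mk RK _
  have hmem : ∀ k < 5, (γ k, y k) ∈ HH RF RK := fun k hk =>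
    mem_HH RF RK (hγ k hk) (hy k hk) (c_v1 k hk) (c_v2 k hk) (c_P0 k hk) (c_Pi k hk)
  have hsurj : ∀ a, ∃ b, (a, b) ∈ HH RF RK := by
    have hle : Subgroup.closure (γ '' {a | a < 5}) ≤ (HH RF RK).map (MonoidHom.fst _ _) := by
      rw [Subgroup.closure_le]
      rintro _ ⟨k, hk, rfl⟩
      exact ⟨(γ k, y k), hmem k hk, rfl⟩
    rw [hclo] at hle
    intro a
    obtain ⟨⟨a', b⟩, hp, rfl⟩ := hle (Subgroup.mem_top a)
    exact ⟨b, hp⟩
  have hN : toM RK.φ 4 Nneg = -1 := by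
    have h2 := phi_two RK
    have h0 := RK.h0
    ext i j
    fin_cases i <;> fin_cases j <;> simp [toM, Nneg, h2, h0]
  let m : Matrix.symplecticGroup (Fin 2) K := ⟨spM RK Nneg, spM_mem RK c_spn⟩
  have hm0 : m.1 = -1 := by
    change spM RK Nneg = -1
    rw [spM, hN, Matrix.submatrix_neg]
    simp
  have hm : ((1 : Cfsg.SU 4 F 2), m) ∈ HH RF RK := by
    refine mem_HH RF RK (L := idC 4) (N := Nneg) (π := fun l => l) ?_ (spHom4_mk RK _) c_vI c_vN rfl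
      (fun i _ j _ h => h)
    rw [map_one, toM_idC RF.h0 RF.h1]
  have hm1 : m ≠ 1 := by
    intro h
    have h1 : spHom4 K m = 1 := by rw [h, map_one]
    rw [show spHom4 K m = toM RK.φ 4 Nneg from spHom4_mk RK _, hN] at h1
    have h2 := congrFun (congrFun h1 0) 0
    simp only [Matrix.neg_apply, Matrix.one_apply_eq] at h2
    have h3 : RK.φ 2 = RK.φ 1 := by
      rw [phi_two RK, RK.h1]
      exact h2
    have := RK.hinj 2 1 (by norm_num) (by norm_num) h3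
    omega
  have hmc : m ∈ Subgroup.center (Matrix.symplecticGroup (Fin 2) K) := by
    rw [Subgroup.mem_center_iff]
    intro g
    apply Subtype.ext
    change g.1 * m.1 = m.1 * g.1
    rw [hm0]
    simp
  have hcSU : Nat.card (Cfsg.SU 4 F 2) = 25920 := card_su42 hF'
  have hcSp : Nat.card (Matrix.symplecticGroup (Fin 2) K) = 51840 := by
    have h := Cfsg.Agent.Lib.Classical.card_sp hK 2
    rw [h]
    norm_num [Finset.prod_range_succ]
  have hfin1 : Finite (Cfsg.SU 4 F 2) := Nat.finite_of_card_ne_zero (by rw [hcSU]; norm_num)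
  have hfin2 : Finite (Matrix.symplecticGroup (Fin 2) K) :=
    Nat.finite_of_card_ne_zero (by rw [hcSp]; norm_num)
  obtain ⟨E⟩ := iso_of_graph (HH RF RK) hsurj (fun a ha => fix_one RF RK hF' ha) (center_su42 hF') m hm hm1 hmc
    (by rw [hcSU, hcSp])
  have hz := center_su42 (F := F) hF'
  let π : Cfsg.SU 4 F 2 →* Cfsg.PSU 4 F 2 := QuotientGroup.mk' _
  have hbij : Function.Bijective π := by
    refine ⟨?_, QuotientGroup.mk'_surjective _⟩
    rw [← MonoidHom.ker_eq_bot_iff, QuotientGroup.ker_mk', hz]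
  exact ⟨(MulEquiv.ofBijective π hbij).symm.trans E⟩

end Main

end Cfsg.Agent.Lib.Components.U42
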